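import Mathlib
import Cfsg.Agent.H940.SepTyp
import Cfsg.Agent.H62.PCSL

/-!
# Classes of maximal subgroups of `PSL_n(q)`, `n ≥ 5` (helper858, for S5906)
-/

set_option autoImplicit false
set_option linter.unusedSectionVars false

namespace Cfsg.Agent.H858.MCPsl

open Module Matrix Cfsg.Agent.H689 Cfsg.Agent.H62.PCGeo Cfsg.Agent.H62.PCNum
open Cfsg.Agent.H940.MaxCls Cfsg.Agent.H940.SepTyp
open CoxeterSystem Cfsg.Agent.ChevalleyStructure.CoxeterGeom Cfsg.Agent.Tits.Roots Cfsg.Agent.Tits.Core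
  Cfsg.Agent.Nodes.Reps Cfsg.Agent.Nodes.BNOf
  Cfsg.Agent.Nodes.Bruhat Cfsg.Agent.Nodes.LeviDec Cfsg.Agent.H554.RG Cfsg.Agent.H554.SLSub
  Cfsg.Agent.Nodes.RGDLib
open Cfsg.Agent.LieRecognition.BNCox (cA cA_apply)
open Cfsg.Agent.Nodes.RootsA Cfsg.Agent.Nodes.RGDTypeA
open Cfsg.Agent.TitsThree.KSideA (tv)

variable {F : Type} [Field F] [Fintype F] {n : ℕ}

section

variable {p : ℕ} [CharP F p] [hp : Fact p.Prime] {L : Subgroup (ProjectiveSpecialLinearGroup (Fin (n + 1)) F)}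

/-- a proper subgroup of index prime to `p` is reducible -/
theorem exists_sub (hnd : ¬ p ∣ L.index) (hnt : L ≠ ⊤) :
    ∃ Y : Submodule F (Fin (n + 1) → F), Y ≠ ⊥ ∧ Y ≠ ⊤ ∧
      ∀ x : SpecialLinearGroup (Fin (n + 1)) F, pr n F x ∈ L → ∀ v ∈ Y, x • v ∈ Y := by
  let cs := (cA n).toCoxeterSystem
  have : Finite (cA n).Group := Cfsg.Agent.Nodes.RootsA.finite_W cs (isCartan n)
  have R := Cfsg.Agent.Nodes.RGDTypeA.rgd_psl (F := F) (p := p) cs (isCartan n)
  obtain ⟨g, i, hg⟩ := H554.RG.exists_conj_le R (GG_psl cs) (G1_psl_eq_top cs (isCartan n)) hnd hnt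
  exact exists_submodule cs (p := p) hg

/-- a subgroup of index prime to `p` containing an element of primitive order is everything -/
theorem eq_top_of_ppd {l : ℕ} (h : Ppd (Fintype.card F) (n + 1) l) (h1 : l ∣ Nat.card L) (hnd : ¬ p ∣ L.index) :
    L = ⊤ := by
  by_contra hnt
  obtain ⟨Y, hY1, hY2, hY⟩ := exists_sub hnd hnt
  have h2 : l ∣ Nat.card (L.comap (pr n F)) := by
    refine h1.trans ?_
    have h3 := Subgroup.card_map_dvd (H := L.comap (pr n F)) (pr n F)
    rwa [Subgroup.map_comap_eq_self_of_surjective pr_surjective] at h3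
  have : Fact l.Prime := ⟨h.prime⟩
  obtain ⟨x, hx⟩ := exists_prime_orderOf_dvd_card' l h2
  have hx1 : (x : SpecialLinearGroup (Fin (n + 1)) F) ≠ 1 := by
    intro h4
    have h5 : x = 1 := Subtype.ext h4
    rw [h5, orderOf_one] at hx
    exact h.prime.one_lt.ne hx
  have hxl : (x : SpecialLinearGroup (Fin (n + 1)) F) ^ l = 1 := by
    have := pow_orderOf_eq_one x
    rw [hx] at this
    exact congrArg Subtype.val this
  set g : (Fin (n + 1) → F) ≃ₗ[F] (Fin (n + 1) → F) := SpecialLinearGroup.toLin' (x : SpecialLinearGroup (Fin (n + 1)) F)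
    with hg
  have hg1 : g ≠ 1 := by
    intro h4
    exact hx1 (SpecialLinearGroup.toLin'_injective (h4.trans (map_one _).symm))
  have hgl : g ^ l = 1 := by
    rw [hg, ← map_pow, hxl, map_one]
  have h6 := irr (F := F) (V := Fin (n + 1) → F) (by
    rw [Module.finrank_fintype_fun_eq_card, Fintype.card_fin, Nat.card_eq_fintype_card]; exact h) hgl hg1 (W := Y)
    (fun v hv => hY x x.2 v hv)
  exact h6.elim hY1 hY2

/-- the Borel subgroup and an element of primitive order are apart -/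
theorem apart_borel (S : Sylow p (ProjectiveSpecialLinearGroup (Fin (n + 1)) F))
    {E : Subgroup (ProjectiveSpecialLinearGroup (Fin (n + 1)) F)} {l : ℕ} (h : Ppd (Fintype.card F) (n + 1) l)
    (hE : l ∣ Nat.card E) : Apart (Subgroup.normalizer ((S : Subgroup (ProjectiveSpecialLinearGroup (Fin (n + 1)) F)) : Set (ProjectiveSpecialLinearGroup (Fin (n + 1)) F))) E := by
  intro g K h1 h2
  refine eq_top_of_ppd (p := p) h ?_ ?_
  · rw [← card_map_conj g] at hE
    exact hE.trans (Subgroup.card_dvd_of_le (map_conj_le h2))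
  · intro h3
    refine S.not_dvd_index (h3.trans (Subgroup.index_dvd_of_le ?_))
    exact Subgroup.le_normalizer.trans h1

/-- the primitive primes divide the order of the group -/
theorem ppd_dvd_card {l : ℕ} (h : Ppd (Fintype.card F) (n + 1) l) (hn : 1 ≤ n) :
    l ∣ Nat.card (ProjectiveSpecialLinearGroup (Fin (n + 1)) F) := by
  have hcard := S0243.result (F := F) rfl (n + 1) (by omega)
  have h1 : ¬ l ∣ Fintype.card F - 1 := h.not_dvd_sub_one (by omega)
  have h2 : l ∣ Nat.gcd (n + 1) (Fintype.card F - 1) *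
      ((Fintype.card F - 1) * Nat.card (ProjectiveSpecialLinearGroup (Fin (n + 1)) F)) := by
    rw [hcard]
    have h3 := Finset.dvd_prod_of_mem (fun i : Fin (n + 1) => Fintype.card F ^ (n + 1) - Fintype.card F ^ (i : ℕ))
      (Finset.mem_univ (0 : Fin (n + 1)))
    refine Dvd.dvd.trans ?_ h3
    simp only [Fin.val_zero, pow_zero]
    exact (h.iff _).2 dvd_rfl
  rcases h.prime.dvd_mul.1 h2 with h5 | h5
  · exact absurd (h5.trans (Nat.gcd_dvd_right _ _)) h1
  · exact (h.prime.dvd_mul.1 h5).resolve_left h1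

end

/-- `p` divides the order -/
theorem p_dvd_card {p : ℕ} [CharP F p] [hp : Fact p.Prime] (hn : 1 ≤ n) :
    p ∣ Nat.card (ProjectiveSpecialLinearGroup (Fin (n + 1)) F) := by
  obtain ⟨m, rfl⟩ : ∃ m, n = m + 1 := ⟨n - 1, by omega⟩
  have h1 : tv (0 : Fin (m + 1 + 1)) 1 (1 : F) ^ p = 1 := by
    rw [tv_pow, nsmul_eq_mul, CharP.cast_eq_zero, zero_mul, Cfsg.Agent.TitsThree.KSideA.tv_zero]
  have h2 : orderOf (pr (m + 1) F (tv (0 : Fin (m + 1 + 1)) 1 (1 : F))) = p := by
    refine orderOf_eq_prime (by rw [← map_pow, h1, map_one]) ?_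
    intro h3
    have h4 : tv (0 : Fin (m + 1 + 1)) 1 (1 : F) ∈ (pr (m + 1) F).ker := h3
    rw [ker_pr, Matrix.SpecialLinearGroup.mem_center_iff] at h4
    obtain ⟨r, -, h4⟩ := h4
    have h5 := congrFun (congrFun h4 0) 1
    have h01 : (0 : Fin (m + 1 + 1)) ≠ 1 := by simp
    rw [tv_val h01] at h5
    simp [Matrix.scalar_apply, Matrix.one_apply_ne h01] at h5
  rw [← h2]
  exact orderOf_dvd_natCard _

theorem psl_five_ge6 (hn : 6 ≤ n) : Sep 5 (ProjectiveSpecialLinearGroup (Fin n) F) := by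
  obtain ⟨m, rfl⟩ : ∃ m, n = m + 1 := ⟨n - 1, by omega⟩
  obtain ⟨p, hpc⟩ := CharP.exists F
  have hp : Fact p.Prime := ⟨CharP.char_is_prime F p⟩
  have h1 := sep_typ_add (Cfsg.Agent.Omega.ML.Ex.Typ.typ_PSL (F := F) m (p := p))
    (default : Sylow p (ProjectiveSpecialLinearGroup (Fin (m + 1)) F)) (k := 0) (fun i => i.elim0)
    (fun i => i.elim0) (fun i => i.elim0) (fun i => i.elim0)
  exact h1.mono (by omega)

theorem psl_five_5 : Sep 5 (ProjectiveSpecialLinearGroup (Fin 5) F) := by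
  obtain ⟨p, hpc⟩ := CharP.exists F
  have hp : Fact p.Prime := ⟨CharP.char_is_prime F p⟩
  obtain ⟨l, hl⟩ := exists_ppd (q := Fintype.card F) (k := 4 + 1) Fintype.one_lt_card (by norm_num) (by omega)
  have : Fact l.Prime := ⟨hl.prime⟩
  obtain ⟨x, hx⟩ := exists_prime_orderOf_dvd_card' l (ppd_dvd_card (F := F) (n := 4) hl (by norm_num))
  have hc : Nat.card (Subgroup.zpowers x) = l := by rw [Nat.card_zpowers, hx]
  have h1 := sep_typ_add (Cfsg.Agent.Omega.ML.Ex.Typ.typ_PSL (F := F) 4 (p := p))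
    (default : Sylow p (ProjectiveSpecialLinearGroup (Fin (4 + 1)) F)) (k := 1) (fun _ => Subgroup.zpowers x)
    (fun _ h => ?_) (fun i j hij => absurd hij (by omega)) (fun _ => apart_borel _ hl (by rw [hc]))
  · exact h1
  · have h2 := p_dvd_card (F := F) (n := 4) (p := p) (by norm_num)
    rw [← Subgroup.card_top, ← h, hc, Nat.prime_dvd_prime_iff_eq hp.out hl.prime] at h2
    subst h2
    have h3 := (hl.iff 5).2 (dvd_refl _)
    obtain ⟨k, hk⟩ := FiniteField.card F p
    apply hl.not_dvd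
    rw [hk.2]
    exact dvd_pow_self p k.ne_zero
  
end Cfsg.Agent.H858.MCPsl
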