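import Mathlib
import Cfsg.Agent.H858.MCPslA
import Cfsg.Agent.H749.FieldExt

/-!
# The symplectic similitudes in `SL_4(q)` (helper858, for S5906)

`N4` : the subgroup of `SL_4(F)` of similitudes of the standard alternating form;
`N4_coatom` : it is maximal; `N4_irr` : it is irreducible.
-/

set_option autoImplicit false
set_option linter.unusedSectionVars false

namespace Cfsg.Agent.H858.MCPsl

open Matrix

section Form

variable {F : Type*} [Field F]

/-- the standard alternating form -/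
def s4 (x y : Fin 4 → F) : F := x 0 * y 1 - x 1 * y 0 + x 2 * y 3 - x 3 * y 2

theorem s4_add_left (x y z : Fin 4 → F) : s4 (x + y) z = s4 x z + s4 y z := by
  simp only [s4, Pi.add_apply]; ring

theorem s4_smul_left (a : F) (x y : Fin 4 → F) : s4 (a • x) y = a * s4 x y := by
  simp only [s4, Pi.smul_apply, smul_eq_mul]; ring

theorem s4_add_right (x y z : Fin 4 → F) : s4 x (y + z) = s4 x y + s4 x z := by
  simp only [s4, Pi.add_apply]; ring

theorem s4_smul_right (a : F) (x y : Fin 4 → F) : s4 x (a • y) = a * s4 x y := by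
  simp only [s4, Pi.smul_apply, smul_eq_mul]; ring

theorem s4_self (x : Fin 4 → F) : s4 x x = 0 := by
  simp only [s4]; ring

theorem s4_swap (x y : Fin 4 → F) : s4 y x = - s4 x y := by
  simp only [s4]; ring

theorem s4_zero_left (x : Fin 4 → F) : s4 0 x = 0 := by
  simp [s4]

theorem s4_zero_right (x : Fin 4 → F) : s4 x 0 = 0 := by
  simp [s4]

/-- the form represents every functional -/
theorem exists_rep (f : (Fin 4 → F) →ₗ[F] F) : ∃ w, ∀ v, s4 v w = f v := by
  refine ⟨![- f (Pi.single 1 1), f (Pi.single 0 1), - f (Pi.single 3 1), f (Pi.single 2 1)], fun v => ?_⟩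
  have h1 : v = v 0 • (Pi.single 0 1 : Fin 4 → F) + v 1 • (Pi.single 1 1 : Fin 4 → F) +
      v 2 • (Pi.single 2 1 : Fin 4 → F) + v 3 • (Pi.single 3 1 : Fin 4 → F) := by
    ext i
    fin_cases i <;> simp
  conv_rhs => rw [h1]
  simp only [map_add, map_smul, smul_eq_mul, s4]
  simp

theorem s4_nondeg {v : Fin 4 → F} (h : ∀ w, s4 v w = 0) : v = 0 := by
  ext i
  obtain ⟨w, hw⟩ := exists_rep (LinearMap.proj (R := F) (φ := fun _ : Fin 4 => F) i)
  have := hw v
  rw [h w] at this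
  exact this.symm

theorem s4_nondeg' {v : Fin 4 → F} (h : ∀ w, s4 w v = 0) : v = 0 :=
  s4_nondeg fun w => by rw [s4_swap, h, neg_zero]

theorem det_eq (B : Matrix (Fin 4) (Fin 4) F) : B.det =
    s4 (B *ᵥ Pi.single 0 1) (B *ᵥ Pi.single 1 1) * s4 (B *ᵥ Pi.single 2 1) (B *ᵥ Pi.single 3 1)
    - s4 (B *ᵥ Pi.single 0 1) (B *ᵥ Pi.single 2 1) * s4 (B *ᵥ Pi.single 1 1) (B *ᵥ Pi.single 3 1)
    + s4 (B *ᵥ Pi.single 0 1) (B *ᵥ Pi.single 3 1) * s4 (B *ᵥ Pi.single 1 1) (B *ᵥ Pi.single 2 1) := by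
  simp only [Matrix.mulVec_single_one]
  rw [Matrix.det_succ_row_zero]
  simp only [Fin.sum_univ_four, Matrix.det_fin_three, Matrix.submatrix_apply, s4, Matrix.col_apply]
  simp [Fin.succAbove, Fin.succ, Fin.castSucc, Fin.lt_def]
  ring

/-- the Pfaffian identity for similitudes -/
theorem det_sim {B : Matrix (Fin 4) (Fin 4) F} {c : F} (h : ∀ x y, s4 (B *ᵥ x) (B *ᵥ y) = c * s4 x y) :
    B.det = c ^ 2 := by
  rw [det_eq]
  simp only [h]
  simp [s4, pow_two]

/-- an isometry -/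
def Iso4 (B : Matrix (Fin 4) (Fin 4) F) : Prop := ∀ x y, s4 (B *ᵥ x) (B *ᵥ y) = s4 x y

theorem Iso4.det {B : Matrix (Fin 4) (Fin 4) F} (h : Iso4 B) : B.det = 1 := by
  have := det_sim (B := B) (c := 1) (fun x y => by rw [h, one_mul])
  rwa [one_pow] at this

theorem val_mul (g h : SpecialLinearGroup (Fin 4) F) : (g * h).1 = g.1 * h.1 := rfl

theorem val_one : (1 : SpecialLinearGroup (Fin 4) F).1 = 1 := rfl

/-- the similitudes in `SL_4(F)` -/
def N4 (F : Type*) [Field F] : Subgroup (SpecialLinearGroup (Fin 4) F) where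
  carrier := {g | ∃ c : F, ∀ x y, s4 (g.1 *ᵥ x) (g.1 *ᵥ y) = c * s4 x y}
  mul_mem' := by
    rintro g h ⟨c, hc⟩ ⟨d, hd⟩
    refine ⟨c * d, fun x y => ?_⟩
    rw [val_mul, ← Matrix.mulVec_mulVec, ← Matrix.mulVec_mulVec, hc, hd, mul_assoc]
  one_mem' := ⟨1, fun x y => by rw [val_one, Matrix.one_mulVec, Matrix.one_mulVec, one_mul]⟩
  inv_mem' := by
    rintro g ⟨c, hc⟩
    refine ⟨c, fun x y => ?_⟩
    have h1 : c * c = 1 := by
      have := det_sim hc
      rw [g.2, pow_two] at this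
      exact this.symm
    have h2 := hc ((g⁻¹).1 *ᵥ x) ((g⁻¹).1 *ᵥ y)
    rw [Matrix.mulVec_mulVec, Matrix.mulVec_mulVec, ← val_mul, mul_inv_cancel,
      val_one, Matrix.one_mulVec, Matrix.one_mulVec] at h2
    rw [h2, ← mul_assoc, h1, one_mul]

theorem mem_N4 {g : SpecialLinearGroup (Fin 4) F} :
    g ∈ N4 F ↔ ∃ c : F, ∀ x y, s4 (g.1 *ᵥ x) (g.1 *ᵥ y) = c * s4 x y := Iff.rfl

theorem iso_mem_N4 {g : SpecialLinearGroup (Fin 4) F} (h : Iso4 g.1) : g ∈ N4 F :=
  ⟨1, fun x y => by rw [h, one_mul]⟩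

theorem ext_mulVec {g h : SpecialLinearGroup (Fin 4) F} (e : ∀ v, g.1 *ᵥ v = h.1 *ᵥ v) : g = h := by
  apply Subtype.ext
  exact Matrix.mulVec_injective (funext e)

theorem mul_mulVec (g h : SpecialLinearGroup (Fin 4) F) (v : Fin 4 → F) : (g * h).1 *ᵥ v = g.1 *ᵥ (h.1 *ᵥ v) := by
  rw [val_mul, ← Matrix.mulVec_mulVec]

theorem inv_mulVec (g : SpecialLinearGroup (Fin 4) F) (v : Fin 4 → F) : (g⁻¹).1 *ᵥ (g.1 *ᵥ v) = v := by
  rw [← mul_mulVec, inv_mul_cancel, val_one, Matrix.one_mulVec]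

theorem mulVec_inv (g : SpecialLinearGroup (Fin 4) F) (v : Fin 4 → F) : g.1 *ᵥ ((g⁻¹).1 *ᵥ v) = v := by
  rw [← mul_mulVec, mul_inv_cancel, val_one, Matrix.one_mulVec]

/-- the map `v ↦ v + s(v,z) y` -/
def trL (y z : Fin 4 → F) : (Fin 4 → F) →ₗ[F] (Fin 4 → F) where
  toFun v := v + s4 v z • y
  map_add' u v := by
    rw [s4_add_left, add_smul]; abel
  map_smul' a v := by
    rw [s4_smul_left, mul_smul, RingHom.id_apply, smul_add]

theorem trL_apply (y z v : Fin 4 → F) : trL y z v = v + s4 v z • y := rfl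

/-- symplectic transvections are isometries -/
theorem iso_tr (c : F) (y : Fin 4 → F) (u v : Fin 4 → F) :
    s4 (u + s4 u (c • y) • y) (v + s4 v (c • y) • y) = s4 u v := by
  simp only [s4_add_left, s4_smul_left, s4_add_right, s4_smul_right, s4_self]
  rw [s4_swap v y]
  ring

/-- `g` acts as `v ↦ v + s(v,z) y` -/
def IsTr (g : SpecialLinearGroup (Fin 4) F) (y z : Fin 4 → F) : Prop := ∀ v, g.1 *ᵥ v = v + s4 v z • y

theorem IsTr.mem_N4 {g : SpecialLinearGroup (Fin 4) F} {c : F} {y : Fin 4 → F} (h : IsTr g y (c • y)) : g ∈ N4 F :=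
  iso_mem_N4 fun u v => by rw [h, h, iso_tr]

/-- the symplectic transvection -/
theorem exists_tr (x : Fin 4 → F) : ∃ g : SpecialLinearGroup (Fin 4) F, IsTr g x x := by
  have h1 : ∀ v, LinearMap.toMatrix' (trL x x) *ᵥ v = v + s4 v x • x := by
    intro v
    rw [LinearMap.toMatrix'_mulVec]
    rfl
  have h2 : Iso4 (LinearMap.toMatrix' (trL x x)) := by
    intro u v
    rw [h1, h1]
    have := iso_tr 1 x u v
    rwa [one_smul] at this
  exact ⟨⟨_, h2.det⟩, h1⟩

/-- an adjoint -/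
theorem exists_adj (h : SpecialLinearGroup (Fin 4) F) : ∃ k : (Fin 4 → F) →ₗ[F] (Fin 4 → F),
    ∀ v x, s4 ((h⁻¹).1 *ᵥ v) x = s4 v (k x) := by
  have h1 : ∀ x, ∃ w, ∀ v, s4 v w = s4 ((h⁻¹).1 *ᵥ v) x := by
    intro x
    refine exists_rep (F := F) ⟨⟨fun v => s4 ((h⁻¹).1 *ᵥ v) x, fun u v => ?_⟩, fun a v => ?_⟩
    · rw [Matrix.mulVec_add, s4_add_left]
    · show s4 ((h⁻¹).1 *ᵥ (a • v)) x = a • s4 ((h⁻¹).1 *ᵥ v) x
      rw [Matrix.mulVec_smul, s4_smul_left, smul_eq_mul]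
  choose k hk using h1
  refine ⟨⟨⟨k, fun x y => ?_⟩, fun a x => ?_⟩, fun v x => (hk x v).symm⟩
  · rw [← sub_eq_zero]
    refine s4_nondeg' fun w => ?_
    rw [sub_eq_add_neg, s4_add_right, ← neg_one_smul F, s4_smul_right, s4_add_right, hk, hk, hk, s4_add_right]
    ring
  · show k (a • x) = a • k x
    rw [← sub_eq_zero]
    refine s4_nondeg' fun w => ?_
    rw [sub_eq_add_neg, s4_add_right, ← neg_one_smul F, s4_smul_right, s4_smul_right, hk, hk, s4_smul_right]
    ring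

/-- separation -/
theorem exists_sep {y z : Fin 4 → F} (h : LinearIndependent F ![y, z]) : ∃ w, s4 y w = 0 ∧ s4 z w = 1 := by
  have h1 : z ∉ Submodule.span F {y} := by
    intro h2
    obtain ⟨a, ha⟩ := Submodule.mem_span_singleton.1 h2
    rw [LinearIndependent.pair_iff] at h
    have := h a (-1) (by rw [ha, neg_one_smul, add_neg_cancel])
    simp at this
  obtain ⟨f, hf, hf'⟩ := Submodule.exists_dual_map_eq_bot_of_notMem h1 inferInstance
  obtain ⟨w, hw⟩ := exists_rep f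
  refine ⟨(f z)⁻¹ • w, ?_, ?_⟩
  · rw [s4_smul_right, hw]
    have : f y ∈ (Submodule.span F {y}).map f :=
      Submodule.mem_map_of_mem (Submodule.mem_span_singleton_self y)
    rw [hf', Submodule.mem_bot] at this
    rw [this, mul_zero]
  · rw [s4_smul_right, hw, inv_mul_cancel₀ hf]

/-- transitivity on isotropic pairs -/
theorem exists_iso {y z : Fin 4 → F} (h : LinearIndependent F ![y, z]) (hs : s4 y z = 0) :
    ∃ B : SpecialLinearGroup (Fin 4) F, Iso4 B.1 ∧ B.1 *ᵥ Pi.single 0 1 = y ∧ B.1 *ᵥ Pi.single 2 1 = z := by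
  have h' : LinearIndependent F ![z, y] := by
    rw [LinearIndependent.pair_iff] at h ⊢
    intro s t hst
    have := h t s (by rw [add_comm]; exact hst)
    exact ⟨this.2, this.1⟩
  obtain ⟨u, hu1, hu2⟩ := exists_sep h'
  obtain ⟨w, hw1, hw2⟩ := exists_sep h
  set t : F := s4 u w with ht
  set w' : Fin 4 → F := w + t • y with hw'
  have e1 : s4 y w' = 0 := by rw [hw', s4_add_right, hw1, s4_smul_right, s4_self, mul_zero, add_zero]
  have e2 : s4 z w' = 1 := by rw [hw', s4_add_right, hw2, s4_smul_right, s4_swap y z, hs, neg_zero, mul_zero, add_zero]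
  have e3 : s4 u w' = 0 := by
    rw [hw', s4_add_right, s4_smul_right, s4_swap y u, hu2, ← ht]
    ring
  let B : Matrix (Fin 4) (Fin 4) F := fun i j => ![y, u, z, w'] j i
  have hB : ∀ x, B *ᵥ x = x 0 • y + x 1 • u + x 2 • z + x 3 • w' := by
    intro x
    ext i
    simp only [Matrix.mulVec, dotProduct, Fin.sum_univ_four, B, Pi.add_apply, Pi.smul_apply, smul_eq_mul]
    simp [mul_comm]
  have hiso : Iso4 B := by
    intro a b
    rw [hB, hB]
    simp only [s4_add_left, s4_smul_left, s4_add_right, s4_smul_right, s4_self, hs, hu1, hu2, e1, e2, e3]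
    rw [s4_swap y u, hu2, s4_swap y z, hs, s4_swap y w', e1, s4_swap z u, hu1, s4_swap z w', e2, s4_swap u w', e3]
    have e4 : s4 u z = 0 := by rw [s4_swap z u, hu1, neg_zero]
    simp only [s4]
    ring
  refine ⟨⟨B, hiso.det⟩, hiso, ?_, ?_⟩
  · show B *ᵥ _ = _
    rw [hB]
    simp
  · show B *ᵥ _ = _
    rw [hB]
    simp

theorem Iso4.inv {B : SpecialLinearGroup (Fin 4) F} (h : Iso4 B.1) : Iso4 (B⁻¹).1 := by
  intro x y
  have h1 := h ((B⁻¹).1 *ᵥ x) ((B⁻¹).1 *ᵥ y)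
  rw [mulVec_inv, mulVec_inv] at h1
  exact h1.symm

theorem IsTr.conj {g B : SpecialLinearGroup (Fin 4) F} {y z : Fin 4 → F} (h : IsTr g (B.1 *ᵥ y) (B.1 *ᵥ z))
    (hB : Iso4 B.1) : IsTr (B⁻¹ * g * B) y z := by
  intro v
  rw [mul_mulVec, mul_mulVec, h, Matrix.mulVec_add, inv_mulVec, Matrix.mulVec_smul, inv_mulVec, hB]

theorem IsTr.unique {g h : SpecialLinearGroup (Fin 4) F} {y z : Fin 4 → F} (hg : IsTr g y z) (hh : IsTr h y z) :
    g = h := ext_mulVec fun v => by rw [hg, hh]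

/-- an overgroup of `N4` with one more transvection has all -/
theorem all_tr {H : Subgroup (SpecialLinearGroup (Fin 4) F)} (hH : N4 F ≤ H) {y₀ z₀ : Fin 4 → F}
    (hli : LinearIndependent F ![y₀, z₀]) (hs : s4 y₀ z₀ = 0)
    {g₀ : SpecialLinearGroup (Fin 4) F} (hg₀ : g₀ ∈ H) (ht : IsTr g₀ y₀ z₀) {y z : Fin 4 → F} (hyz : s4 y z = 0)
    {g : SpecialLinearGroup (Fin 4) F} (hg : IsTr g y z) : g ∈ H := by
  by_cases hy : y = 0
  · have : g = 1 := ext_mulVec fun v => by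
      rw [hg, hy, smul_zero, add_zero, val_one, Matrix.one_mulVec]
    rw [this]
    exact H.one_mem
  by_cases hli' : LinearIndependent F ![y, z]
  · obtain ⟨B₀, hB₀, h1, h2⟩ := exists_iso hli hs
    obtain ⟨B, hB, h3, h4⟩ := exists_iso hli' hyz
    rw [← h1, ← h2] at ht
    rw [← h3, ← h4] at hg
    have e := (hg.conj hB).unique (ht.conj hB₀)
    have m1 : B ∈ H := hH (iso_mem_N4 hB)
    have m2 : B₀ ∈ H := hH (iso_mem_N4 hB₀)
    have m3 : B⁻¹ * g * B ∈ H := by
      rw [e]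
      exact H.mul_mem (H.mul_mem (H.inv_mem m2) hg₀) m2
    have m4 : B * (B⁻¹ * g * B) * B⁻¹ ∈ H := H.mul_mem (H.mul_mem m1 m3) (H.inv_mem m1)
    have e2 : B * (B⁻¹ * g * B) * B⁻¹ = g := by group
    rwa [e2] at m4
  · rw [LinearIndependent.pair_iff' hy] at hli'
    push Not at hli'
    obtain ⟨c, rfl⟩ := hli'
    exact hH hg.mem_N4

/-- all transvections generate -/
theorem eq_top_of_all {H : Subgroup (SpecialLinearGroup (Fin 4) F)}
    (h : ∀ y z : Fin 4 → F, s4 y z = 0 → ∀ g : SpecialLinearGroup (Fin 4) F, IsTr g y z → g ∈ H) : H = ⊤ := by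
  rw [eq_top_iff, ← Cfsg.Agent.LieClassical.SLGen.closure_transvections (ι := Fin 4) (F := F), Subgroup.closure_le]
  rintro _ ⟨i, j, hij, c, rfl⟩
  obtain ⟨z, hz⟩ := exists_rep (c • LinearMap.proj (R := F) (φ := fun _ : Fin 4 => F) j)
  refine h (Pi.single i 1) z ?_ _ ?_
  · rw [hz]
    simp [hij.symm]
  · intro v
    rw [hz]
    show (1 + Matrix.single i j c) *ᵥ v = _
    rw [Matrix.add_mulVec, Matrix.one_mulVec]
    congr 1
    ext k
    simp only [Matrix.mulVec, dotProduct, Matrix.single_apply, Pi.smul_apply, Pi.single_apply]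
    rw [Finset.sum_eq_single j]
    · by_cases hk : k = i
      · simp [hk]
      · simp [hk, Ne.symm hk]
    · intro b _ hb
      simp [Ne.symm hb]
    · intro hb
      exact absurd (Finset.mem_univ j) hb

/-- `N4` is maximal -/
theorem N4_max {H : Subgroup (SpecialLinearGroup (Fin 4) F)} (hH : N4 F ≤ H) {h : SpecialLinearGroup (Fin 4) F}
    (hh : h ∈ H) (hn : h ∉ N4 F) : H = ⊤ := by
  obtain ⟨k, hk⟩ := exists_adj h
  by_cases hx : ∃ x, LinearIndependent F ![h.1 *ᵥ x, k x]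
  · obtain ⟨x, hx⟩ := hx
    obtain ⟨t, ht⟩ := exists_tr x
    have hg : IsTr (h * t * h⁻¹) (h.1 *ᵥ x) (k x) := by
      intro v
      rw [mul_mulVec, mul_mulVec, ht, Matrix.mulVec_add, mulVec_inv, Matrix.mulVec_smul, hk]
    have hs : s4 (h.1 *ᵥ x) (k x) = 0 := by rw [← hk, inv_mulVec, s4_self]
    have htN : t ∈ N4 F := by
      have : IsTr t x ((1 : F) • x) := by rwa [one_smul]
      exact this.mem_N4
    have hm : h * t * h⁻¹ ∈ H := H.mul_mem (H.mul_mem hh (hH htN)) (H.inv_mem hh)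
    exact eq_top_of_all fun y z hyz g hg' => all_tr hH hx hs hm hg hyz hg'
  · exfalso
    push Not at hx
    apply hn
    obtain ⟨c, hc⟩ := LinearMap.exists_eq_smul_id_of_forall_notLinearIndependent
      (f := k ∘ₗ Matrix.mulVecLin (h⁻¹).1) (fun v => by
        have := hx ((h⁻¹).1 *ᵥ v)
        rwa [mulVec_inv] at this)
    have h1 : ∀ x, k x = c • (h.1 *ᵥ x) := by
      intro x
      have := LinearMap.congr_fun hc (h.1 *ᵥ x)
      simp only [LinearMap.comp_apply, Matrix.mulVecLin_apply, LinearMap.smul_apply, Module.End.one_apply] at this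
      rwa [inv_mulVec] at this
    have h2 : ∀ u v, s4 u v = c * s4 (h.1 *ᵥ u) (h.1 *ᵥ v) := by
      intro u v
      have := hk (h.1 *ᵥ u) v
      rwa [inv_mulVec, h1, s4_smul_right] at this
    have hc0 : c ≠ 0 := by
      rintro rfl
      have := h2 (Pi.single 0 1) (Pi.single 1 1)
      simp [s4] at this
    refine ⟨c⁻¹, fun x y => ?_⟩
    rw [h2 x y, ← mul_assoc, inv_mul_cancel₀ hc0, one_mul]

/-- `N4` is irreducible -/
theorem N4_irr {Y : Submodule F (Fin 4 → F)} (hY : ∀ g ∈ N4 F, ∀ v ∈ Y, g.1 *ᵥ v ∈ Y) : Y = ⊥ ∨ Y = ⊤ := by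
  by_cases h : Y = ⊥
  · exact Or.inl h
  right
  obtain ⟨v, hv, hv0⟩ := Submodule.exists_mem_ne_zero_of_ne_bot h
  have h1 : ∀ x, s4 v x ≠ 0 → x ∈ Y := by
    intro x hx
    obtain ⟨g, hg⟩ := exists_tr x
    have hgN : g ∈ N4 F := by
      have : IsTr g x ((1 : F) • x) := by rwa [one_smul]
      exact this.mem_N4
    have h2 := hY g hgN v hv
    rw [hg] at h2
    have h3 : s4 v x • x ∈ Y := (Submodule.add_mem_iff_right Y hv).1 h2
    exact (Submodule.smul_mem_iff Y hx).1 h3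
  obtain ⟨w, hw⟩ : ∃ w, s4 v w ≠ 0 := by
    by_contra hc
    push Not at hc
    exact hv0 (s4_nondeg hc)
  rw [eq_top_iff]
  intro x _
  by_cases hx : s4 v x = 0
  · have h2 : x + w ∈ Y := h1 _ (by rw [s4_add_right, hx, zero_add]; exact hw)
    exact (Submodule.add_mem_iff_left Y (h1 w hw)).1 h2
  · exact h1 x hx

/-- the center is in `N4` -/
theorem center_le_N4 : Subgroup.center (SpecialLinearGroup (Fin 4) F) ≤ N4 F := by
  intro g hg
  rw [Matrix.SpecialLinearGroup.mem_center_iff] at hg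
  obtain ⟨r, -, hr⟩ := hg
  have h1 : ∀ v, g.1 *ᵥ v = r • v := by
    intro v
    have : g.1 = Matrix.scalar (Fin 4) r := hr.symm
    rw [this, Matrix.scalar_apply, ← Matrix.smul_one_eq_diagonal, Matrix.smul_mulVec, Matrix.one_mulVec]
  refine ⟨r * r, fun x y => ?_⟩
  rw [h1, h1, s4_smul_left, s4_smul_right, mul_assoc]

end Form

section Coatom

open Cfsg.Agent.Nodes.RGDTypeA

variable {F : Type*} [Field F]

theorem N4_ne_top : N4 F ≠ ⊤ := by
  intro h
  have h1 : SpecialLinearGroup.transvection (show (0 : Fin 4) ≠ 2 by decide) (1 : F) ∈ N4 F := by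
    rw [h]; exact Subgroup.mem_top _
  obtain ⟨c, hc⟩ := h1
  have e : ∀ v : Fin 4 → F, (SpecialLinearGroup.transvection (show (0 : Fin 4) ≠ 2 by decide) (1 : F)).1 *ᵥ v =
      ![v 0 + v 2, v 1, v 2, v 3] := by
    intro v
    show (1 + Matrix.single 0 2 1) *ᵥ v = _
    rw [Matrix.add_mulVec, Matrix.one_mulVec]
    ext k
    fin_cases k <;> simp [Matrix.mulVec, dotProduct, Fin.sum_univ_four, Matrix.single_apply]
  have h2 := hc (Pi.single 2 1) (Pi.single 1 1)
  rw [e, e] at h2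
  simp [s4] at h2

theorem comap_map_N4 : ((N4 F).map (pr 3 F)).comap (pr 3 F) = N4 F := by
  rw [Subgroup.comap_map_eq, ker_pr, sup_eq_left.2 center_le_N4]

theorem N_coatom : IsCoatom ((N4 F).map (pr 3 F)) := by
  refine ⟨fun h => ?_, fun H hH => ?_⟩
  · apply N4_ne_top (F := F)
    rw [← comap_map_N4, h, Subgroup.comap_top]
  · obtain ⟨hle, hne⟩ := hH
    have h1 : N4 F ≤ H.comap (pr 3 F) := Subgroup.map_le_iff_le_comap.1 hle
    obtain ⟨x, hx, hx'⟩ := SetLike.not_le_iff_exists.1 hne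
    obtain ⟨g, rfl⟩ := pr_surjective (n := 3) (F := F) x
    have h2 : H.comap (pr 3 F) = ⊤ := N4_max h1 (h := g) hx fun h3 => hx' (Subgroup.mem_map_of_mem _ h3)
    rw [← Subgroup.map_comap_eq_self_of_surjective pr_surjective H, h2, ← MonoidHom.range_eq_map]
    exact MonoidHom.range_eq_top.2 pr_surjective

end Coatom

section Index

open Cfsg.Agent.Nodes.RGDTypeA

variable {F : Type} [Field F] [Fintype F]

theorem p_dvd_index {p : ℕ} [CharP F p] [hp : Fact p.Prime] : p ∣ ((N4 F).map (pr 3 F)).index := by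
  by_contra h
  obtain ⟨Y, hY1, hY2, hY⟩ := exists_sub (n := 3) (p := p) h N_coatom.1
  have := N4_irr (Y := Y) fun g hg v hv => hY g (Subgroup.mem_map_of_mem _ hg) v hv
  exact this.elim hY1 hY2

end Index

end Cfsg.Agent.H858.MCPsl
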