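import Mathlib
import Cfsg.Agent.H858.MCPslB

/-!
# Classes of maximal subgroups of `PSL_n(q)`, `n ≥ 4` (helper858, for S5906)

`psl_five` : at least five classes.
-/

set_option autoImplicit false
set_option linter.unusedSectionVars false

namespace Cfsg.Agent.H858.MCPsl

open Matrix Polynomial

section Field

variable {F L : Type*} [Field F] [Field L] [Algebra F L]

theorem pow_form (β : L →ₗ[F] L →ₗ[F] F) {ξ η : L} (h : ∀ u v, β (ξ * u) v = β u (η * v)) (n : ℕ) :
    ∀ u v, β (ξ ^ n * u) v = β u (η ^ n * v) := by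
  induction n with
  | zero => intro u v; simp
  | succ n ih =>
    intro u v
    rw [pow_succ', mul_assoc, h, ih, ← mul_assoc, pow_succ]

theorem aeval_form (β : L →ₗ[F] L →ₗ[F] F) {ξ η : L} (h : ∀ u v, β (ξ * u) v = β u (η * v)) (P : F[X]) :
    ∀ u v, β (aeval ξ P * u) v = β u (aeval η P * v) := by
  induction P using Polynomial.induction_on' with
  | add p q hp hq =>
    intro u v
    simp only [map_add, add_mul, LinearMap.add_apply, hp, hq]
  | monomial n a =>
    intro u v
    rw [aeval_monomial, aeval_monomial, ← Algebra.smul_def, ← Algebra.smul_def, smul_mul_assoc, smul_mul_assoc,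
      map_smul, map_smul, LinearMap.smul_apply, pow_form β h]

theorem frob_of_form [Finite L] [Fintype F] (β : L →ₗ[F] L →ₗ[F] F) (hnd : ∀ v, (∀ u, β u v = 0) → v = 0) {ξ η : L}
    (h : ∀ u v, β (ξ * u) v = β u (η * v)) : ∃ i < Module.finrank F L, η = ξ ^ (Fintype.card F ^ i) := by
  have h1 : aeval η (minpoly F ξ) = 0 := by
    refine hnd _ fun u => ?_
    have := aeval_form β h (minpoly F ξ) u 1
    rw [minpoly.aeval, zero_mul, map_zero, LinearMap.zero_apply, mul_one] at this
    exact this.symm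
  have : Finite F := inferInstance
  have h2 : IsConjRoot F ξ η := (isConjRoot_iff_aeval_eq_zero (Algebra.IsIntegral.isIntegral ξ)).2 h1
  obtain ⟨σ, hσ⟩ := isConjRoot_iff_exists_algEquiv.1 h2.symm
  obtain ⟨i, hi⟩ := (FiniteField.bijective_frobeniusAlgEquivOfAlgebraic_pow F L).2 σ
  refine ⟨i, i.2, ?_⟩
  rw [← hσ, ← hi]
  simp only [AlgEquiv.coe_pow, FiniteField.coe_frobeniusAlgEquivOfAlgebraic_iterate]

end Field

theorem arith {q i : ℕ} (hq : 2 ≤ q) (hi : i < 4) (h : 1 + q + q ^ 2 + q ^ 3 ∣ 2 * (q ^ i + 1)) : False := by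
  have h2 : q ^ 2 = q * q := by ring
  have h3 : q ^ 3 = q * (q * q) := by ring
  have e2 : 2 * q ≤ q * q := Nat.mul_le_mul_right q hq
  have e3 : 2 * (q * q) ≤ q * (q * q) := Nat.mul_le_mul_right _ hq
  interval_cases i
  · have := Nat.le_of_dvd (by positivity) h
    rw [pow_zero] at this
    omega
  · have := Nat.le_of_dvd (by positivity) h
    rw [pow_one] at this
    omega
  · have := Nat.le_of_dvd (by positivity) h
    omega
  · obtain ⟨k, hk⟩ := h
    rw [h2, h3] at hk
    rcases Nat.lt_or_ge k 2 with hk2 | hk2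
    · interval_cases k
      · omega
      · omega
    · have := Nat.mul_le_mul_left (1 + q + q * q + q * (q * q)) hk2
      omega

/-- the torus -/
theorem exists_torus (F : Type*) [Field F] [Fintype F] : ∃ x : SpecialLinearGroup (Fin 4) F,
    orderOf x = 1 + Fintype.card F + Fintype.card F ^ 2 + Fintype.card F ^ 3 ∧ ∀ g, g * x * g⁻¹ ∉ N4 F := by
  obtain ⟨L, _, _, _, hcard, hfin⟩ := Cfsg.Agent.H749.exists_ext F 4 (by norm_num)
  set q := Fintype.card F with hq
  have hqF : Nat.card F = q := Nat.card_eq_fintype_card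
  have hq2 : 2 ≤ q := Fintype.one_lt_card
  obtain ⟨ξ, hξ⟩ := Cfsg.Agent.H749.exists_order L (m := 1 + q + q ^ 2 + q ^ 3) (by
    rw [hcard, hqF]
    refine ⟨q - 1, ?_⟩
    obtain ⟨r, hr⟩ : ∃ r, q = r + 1 := ⟨q - 1, by omega⟩
    rw [hr, Nat.add_sub_cancel]
    refine Nat.sub_eq_of_eq_add ?_
    ring)
  have hξL : (ξ : L) ^ (1 + q + q ^ 2 + q ^ 3) = 1 := by
    have := pow_orderOf_eq_one ξ
    rw [hξ] at this
    rw [← Units.val_pow_eq_pow_val, this, Units.val_one]
  let b : Module.Basis (Fin 4) F L := Module.finBasisOfFinrankEq F L hfin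
  have hdet : (Algebra.leftMulMatrix b (ξ : L)).det = 1 := by
    rw [← Algebra.norm_eq_matrix_det b]
    apply (algebraMap F L).injective
    rw [FiniteField.algebraMap_norm_eq_pow_sum, hfin, map_one, hqF]
    simp only [Finset.sum_range_succ, Finset.sum_range_zero, pow_zero, pow_one, zero_add]
    exact hξL
  let x : SpecialLinearGroup (Fin 4) F := ⟨Algebra.leftMulMatrix b (ξ : L), hdet⟩
  have hx1 : x.1 = Algebra.leftMulMatrix b (ξ : L) := rfl
  have hpow : ∀ n : ℕ, (x ^ n).1 = Algebra.leftMulMatrix b ((ξ : L) ^ n) := by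
    intro n
    rw [map_pow]
    exact Matrix.SpecialLinearGroup.coe_pow x n
  refine ⟨x, ?_, ?_⟩
  · rw [← hξ]
    rw [orderOf_eq_orderOf_iff]
    intro n
    constructor
    · intro h
      have h1 := hpow n
      rw [h] at h1
      have h2 : Algebra.leftMulMatrix b ((ξ : L) ^ n) = Algebra.leftMulMatrix b 1 := by
        rw [← h1, map_one]
        rfl
      have h3 := Algebra.leftMulMatrix_injective b h2
      apply Units.ext
      rw [Units.val_pow_eq_pow_val, h3, Units.val_one]
    · intro h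
      apply Subtype.ext
      rw [hpow]
      have : (ξ : L) ^ n = 1 := by
        rw [← Units.val_pow_eq_pow_val, h, Units.val_one]
      rw [this, map_one]
      rfl
  · rintro g ⟨c, hc⟩
    have hc2 : c ^ 2 = 1 := by
      rw [← det_sim hc]
      exact (g * x * g⁻¹).2
    -- the form on `L`
    let β : L →ₗ[F] L →ₗ[F] F := LinearMap.mk₂ F (fun u v => s4 (g.1 *ᵥ b.equivFun u) (g.1 *ᵥ b.equivFun v))
      (fun u u' v => by rw [map_add, Matrix.mulVec_add, s4_add_left])
      (fun a u v => by rw [map_smul, Matrix.mulVec_smul, s4_smul_left, smul_eq_mul])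
      (fun u v v' => by rw [map_add, Matrix.mulVec_add, s4_add_right])
      (fun a u v => by rw [map_smul, Matrix.mulVec_smul, s4_smul_right, smul_eq_mul])
    have hβ : ∀ u v, β u v = s4 (g.1 *ᵥ b.equivFun u) (g.1 *ᵥ b.equivFun v) := fun u v => rfl
    have hmul : ∀ u : L, b.equivFun (ξ * u) = x.1 *ᵥ b.equivFun u := by
      intro u
      rw [hx1]
      exact (Algebra.leftMulMatrix_mulVec_repr b (ξ : L) u).symm
    have hββ : ∀ u v, β (ξ * u) (ξ * v) = c * β u v := by
      intro u v
      rw [hβ, hβ, hmul, hmul, ← hc]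
      congr 1 <;> rw [mul_mulVec, mul_mulVec, inv_mulVec]
    have hnd : ∀ v, (∀ u, β u v = 0) → v = 0 := by
      intro v hv
      have h1 : g.1 *ᵥ b.equivFun v = 0 := by
        refine s4_nondeg' fun w => ?_
        have := hv (b.equivFun.symm ((g⁻¹).1 *ᵥ w))
        rwa [hβ, LinearEquiv.apply_symm_apply, mulVec_inv] at this
      have h2 : b.equivFun v = 0 := by
        rw [← inv_mulVec g (b.equivFun v), h1, Matrix.mulVec_zero]
      exact (LinearEquiv.map_eq_zero_iff b.equivFun).1 h2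
    have hξ0 : (ξ : L) ≠ 0 := ξ.ne_zero
    obtain ⟨i, hi, h1⟩ := frob_of_form β hnd (ξ := (ξ : L)) (η := algebraMap F L c * (ξ : L)⁻¹) (by
      intro u v
      have h1 := hββ u ((ξ : L)⁻¹ * v)
      rw [← mul_assoc, mul_inv_cancel₀ hξ0, one_mul] at h1
      rw [h1, mul_assoc, ← Algebra.smul_def, map_smul, smul_eq_mul])
    rw [hfin] at hi
    have h2 : (ξ : L) ^ (q ^ i + 1) = algebraMap F L c := by
      rw [pow_succ, ← h1, mul_assoc, inv_mul_cancel₀ hξ0, mul_one]
    have h3 : (ξ : L) ^ (2 * (q ^ i + 1)) = 1 := by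
      rw [mul_comm, pow_mul, h2, ← map_pow, hc2, map_one]
    have h4 : ξ ^ (2 * (q ^ i + 1)) = 1 := by
      apply Units.ext
      rw [Units.val_pow_eq_pow_val, h3, Units.val_one]
    have h5 := orderOf_dvd_of_pow_eq_one h4
    rw [hξ] at h5
    exact arith hq2 hi h5

open Cfsg.Agent.H940.MaxCls Cfsg.Agent.H940.SepTyp Cfsg.Agent.H689 Cfsg.Agent.Nodes.RGDTypeA

variable {F : Type} [Field F] [Fintype F]

theorem psl_five_4 : Sep 5 (ProjectiveSpecialLinearGroup (Fin 4) F) := by
  obtain ⟨p, hpc⟩ := CharP.exists F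
  have hp : Fact p.Prime := ⟨CharP.char_is_prime F p⟩
  obtain ⟨l, hl⟩ := exists_ppd (q := Fintype.card F) (k := 3 + 1) Fintype.one_lt_card (by norm_num) (by omega)
  have : Fact l.Prime := ⟨hl.prime⟩
  obtain ⟨x, hx, hxN⟩ := exists_torus F
  set q := Fintype.card F with hq
  have hq2 : 2 ≤ q := Fintype.one_lt_card
  have hlm : l ∣ 1 + q + q ^ 2 + q ^ 3 := by
    have h1 : l ∣ q ^ 4 - 1 := (hl.iff 4).2 (dvd_refl _)
    have h2 : q ^ 4 - 1 = (q - 1) * (1 + q + q ^ 2 + q ^ 3) := by
      obtain ⟨r, hr⟩ : ∃ r, q = r + 1 := ⟨q - 1, by omega⟩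
      rw [hr, Nat.add_sub_cancel]
      refine Nat.sub_eq_of_eq_add ?_
      ring
    rw [h2] at h1
    exact (hl.prime.dvd_mul.1 h1).resolve_left (hl.not_dvd_sub_one (by norm_num))
  have hlE : l ∣ Nat.card (Subgroup.zpowers (pr 3 F x)) := by
    obtain ⟨k, hk⟩ := hlm
    have hk0 : k ≠ 0 := by
      rintro rfl
      omega
    have h1 : orderOf (x ^ k) = l := by
      rw [orderOf_pow_of_dvd hk0 (by rw [hx, hk]; exact dvd_mul_left _ _), hx, hk,
        Nat.mul_div_cancel _ (Nat.pos_of_ne_zero hk0)]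
    have h2 : orderOf (pr 3 F (x ^ k)) = l := by
      refine orderOf_eq_prime ?_ ?_
      · rw [← map_pow, ← h1, pow_orderOf_eq_one, map_one]
      · intro h3
        have h4 : x ^ k ∈ (pr 3 F).ker := h3
        rw [ker_pr, Matrix.SpecialLinearGroup.mem_center_iff] at h4
        obtain ⟨r, hr, h4⟩ := h4
        have h5 : (x ^ k) ^ 4 = 1 := by
          apply Subtype.ext
          have e : ((x ^ k) ^ 4).1 = (x ^ k).1 ^ 4 := Matrix.SpecialLinearGroup.coe_pow (x ^ k) 4
          have e2 : (x ^ k).1 = Matrix.scalar (Fin 4) r := h4.symm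
          rw [e, e2, ← map_pow]
          rw [Fintype.card_fin] at hr
          rw [hr, map_one]
          rfl
        have h6 := orderOf_dvd_of_pow_eq_one h5
        rw [h1] at h6
        have := Nat.le_of_dvd (by norm_num) h6
        have := hl.le (by norm_num)
        omega
    rw [← h2]
    have h3 : pr 3 F (x ^ k) ∈ Subgroup.zpowers (pr 3 F x) := by
      rw [map_pow]
      exact Subgroup.pow_mem _ (Subgroup.mem_zpowers _) _
    exact Subgroup.orderOf_dvd_natCard _ h3
  have h := sep_typ_coatoms_succ (Cfsg.Agent.Omega.ML.Ex.Typ.typ_PSL (F := F) 3 (p := p))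
    (default : Sylow p (ProjectiveSpecialLinearGroup (Fin (3 + 1)) F)) (k := 1) (fun _ => (N4 F).map (pr 3 F))
    (fun _ => N_coatom) (fun i j hij => absurd hij (by omega)) (fun _ => p_dvd_index)
    (E := Subgroup.zpowers (pr 3 F x)) ?_ ?_ (apart_borel _ hl hlE)
  · exact h
  · intro h
    have h2 := p_dvd_card (F := F) (n := 3) (p := p) (by norm_num)
    rw [← Subgroup.card_top, ← h, Nat.card_zpowers] at h2
    have h3 : p ∣ 1 + q + q ^ 2 + q ^ 3 := by
      rw [← hx]
      exact h2.trans (orderOf_map_dvd _ _)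
    obtain ⟨k, hk⟩ := FiniteField.card F p
    have h4 : p ∣ q := by
      rw [hq, hk.2]
      exact dvd_pow_self p k.ne_zero
    have h5 : p ∣ 1 := by
      have h6 : 1 + q + q ^ 2 + q ^ 3 = 1 + q * (1 + q + q ^ 2) := by ring
      rw [h6] at h3
      exact (Nat.dvd_add_left (h4.mul_right _)).1 h3
    exact hp.out.one_lt.ne' (Nat.dvd_one.1 h5)
  · intro _ g
    refine ⟨pr 3 F x, Subgroup.mem_zpowers _, fun h => ?_⟩
    obtain ⟨g, rfl⟩ := pr_surjective (n := 3) (F := F) g
    rw [← map_inv, ← map_mul, ← map_mul] at h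
    have h1 : g * x * g⁻¹ ∈ ((N4 F).map (pr 3 F)).comap (pr 3 F) := h
    rw [comap_map_N4] at h1
    exact hxN g h1

/-- **at least five classes of maximal subgroups** -/
theorem psl_five (F : Type) [Field F] [Fintype F] (n : ℕ) (hn : 4 ≤ n) :
    Sep 5 (ProjectiveSpecialLinearGroup (Fin n) F) := by
  rcases Nat.lt_or_ge n 6 with h | h
  · interval_cases n
    · exact psl_five_4
    · exact psl_five_5
  · exact psl_five_ge6 h

end Cfsg.Agent.H858.MCPsl

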